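import Cfsg.Agent.H81.MetaMult
import Mathlib.GroupTheory.SpecificGroups.Dihedral

/-! The Schur multiplier of a dihedral group. -/

set_option autoImplicit false

namespace Cfsg.Agent.H81

theorem dihedral_mult (k f h : ℕ) (hf : k + 1 = Nat.gcd (k + 1) (2 * k) * f) (hh : f * h = k + 1) :
    HasCyclicSchurMultiplier (DihedralGroup (k + 1)) h := by
  have key := H81.hasCyclicSchurMultiplier_meta (G := DihedralGroup (k + 1))
    (a := DihedralGroup.r 1) (b := DihedralGroup.sr 0) (m := k + 1) (n := 2)
    (ρ := 2 * k) (f := f) (l := 0) (h := h) DihedralGroup.orderOf_r_one (by omega) (by omega)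
    hf ?_ ?_ ?_ ?_ ?_
  · simpa using key
  · rw [mul_inv_eq_iff_eq_mul, DihedralGroup.r_one_pow, DihedralGroup.sr_mul_r,
      DihedralGroup.r_mul_sr]
    congr 1
    have : ((k + 1 : ℕ) : ZMod (k + 1)) = 0 := ZMod.natCast_self _
    push_cast at this ⊢
    linear_combination 2 * this
  · rw [pow_two, DihedralGroup.sr_mul_self, mul_zero, pow_zero]
  · rw [eq_top_iff]
    intro x _
    have h1 : ∀ i, DihedralGroup.r i ∈ Subgroup.closure
        ({DihedralGroup.r 1, DihedralGroup.sr 0} : Set (DihedralGroup (k + 1))) := fun i => by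
      rw [← ZMod.natCast_zmod_val i, ← DihedralGroup.r_one_pow]
      exact Subgroup.pow_mem _ (Subgroup.subset_closure (by simp)) _
    rcases x with i | i
    · exact h1 i
    · have : DihedralGroup.sr i = DihedralGroup.sr 0 * DihedralGroup.r i := by simp
      rw [this]
      exact Subgroup.mul_mem _ (Subgroup.subset_closure (by simp)) (h1 i)
  · simp only [Finset.sum_range_succ, Finset.range_zero, Finset.sum_empty, pow_zero, pow_one]
    rw [show 0 + 1 + (2 * k + 1) = (k + 1) * 2 by ring, Nat.gcd_mul_right_right, hh]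
  · intro j hj
    by_contra h2
    obtain ⟨i, rfl⟩ : ∃ i, j = 2 * i + 1 := ⟨j / 2, by omega⟩
    rw [pow_succ, pow_mul, pow_two, DihedralGroup.sr_mul_self, one_pow, one_mul,
      ← mem_powers_iff_mem_zpowers] at hj
    obtain ⟨t, ht⟩ := hj
    simp only [DihedralGroup.r_one_pow] at ht
    cases ht

end Cfsg.Agent.H81
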