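import Cfsg.Agent.H81.Cover
import Mathlib

/-! Restriction and corestriction for Schur multipliers. -/

set_option autoImplicit false

namespace Cfsg.Agent.H81

open Function Subgroup
open scoped commutatorElement

universe u v w

theorem out_mem' {G : Type*} [Group G] (H : Subgroup G) (g : G) (q : G ⧸ H) :
    q.out⁻¹ * (g * (g⁻¹ • q).out) ∈ H := by
  rw [← QuotientGroup.eq, QuotientGroup.out_eq', ← smul_eq_mul, MulAction.Quotient.coe_smul_out,
    smul_inv_smul]

theorem transfer_eq_prod_out' {G A : Type*} [Group G] [CommGroup A] {H : Subgroup G}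
    [H.FiniteIndex] [Fintype (G ⧸ H)] (ϕ : H →* A) (g : G) :
    MonoidHom.transfer ϕ g =
      ∏ q : G ⧸ H, ϕ ⟨q.out⁻¹ * (g * (g⁻¹ • q).out), out_mem' H g q⟩ := by
  let T : H.LeftTransversal :=
    ⟨Set.range Quotient.out, Subgroup.isComplement_range_left Quotient.out_eq'⟩
  have hT : ∀ q : G ⧸ H, (T.2.leftQuotientEquiv q : G) = q.out := fun q =>
    Subgroup.IsComplement.leftQuotientEquiv_apply Quotient.out_eq' q
  rw [MonoidHom.transfer_def ϕ T g, Subgroup.leftTransversals.diff]
  refine Finset.prod_congr (by congr; exact Subsingleton.elim _ _) fun q _ => ?_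
  congr 1
  apply Subtype.ext
  simp only [Subgroup.smul_apply_eq_smul_apply_inv_smul, hT, smul_eq_mul]

section
variable {F : Type u} {G : Type v} [Group F] [Group G] (π : F →* G)

/-- the map `R → R / [R, F]`. -/
def covTheta : π.ker →* (covMap π).ker :=
  ((QuotientGroup.mk' _).comp π.ker.subtype).codRestrict _ fun r => r.2

theorem covTheta_surjective : Surjective (covTheta π) := by
  rintro ⟨x, hx⟩
  obtain ⟨r, rfl⟩ := QuotientGroup.mk_surjective x
  exact ⟨⟨r, hx⟩, rfl⟩

theorem covTheta_conj (f : F) (r : π.ker) :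
    covTheta π (MulAut.conjNormal f r) = covTheta π r := by
  apply Subtype.ext
  change (QuotientGroup.mk' _) (f * r * f⁻¹) = (QuotientGroup.mk' _) r.1
  rw [map_mul, map_mul, map_inv]
  have := mem_center_iff.1 (covMap_ker_le_center π (covTheta π r).2) (QuotientGroup.mk' _ f)
  exact mul_inv_eq_iff_eq_mul.2 this

theorem exists_hopf_res_cor [Finite G] (hπ : Surjective π) (U : Subgroup G) :
    ∃ (res : Hopf π →* Hopf (π.subgroupComap U)) (cor : Hopf (π.subgroupComap U) →* Hopf π),
      ∀ a, cor (res a) = a ^ U.index := by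
  classical
  set FU := U.comap π with hFU
  set πU : FU →* U := π.subgroupComap U with hπU
  have hidx : FU.index = U.index := index_comap_of_surjective U hπ
  have : FU.FiniteIndex := ⟨by rw [hidx]; exact index_ne_zero_of_finite⟩
  have := FU.fintypeQuotientOfFiniteIndex
  have hR : π.ker ≤ FU := fun r hr => by
    rw [hFU, mem_comap, MonoidHom.mem_ker.1 hr]; exact U.one_mem
  let ι : π.ker →* πU.ker := (inclusion hR).codRestrict _ fun r => Subtype.ext r.2
  let ψ : π.ker →* (covMap πU).ker := (covTheta πU).comp ι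
  have hψ : ∀ (u : F) (_ : u ∈ FU) (r : π.ker), ψ (MulAut.conjNormal u r) = ψ r :=
    fun u hu r => covTheta_conj πU ⟨u, hu⟩ (ι r)
  let N : π.ker →* (covMap πU).ker :=
    ∏ q : F ⧸ FU, ψ.comp (MulAut.conjNormal (q.out⁻¹ : F)).toMonoidHom
  have hN : ∀ r, N r = ∏ q : F ⧸ FU, ψ (MulAut.conjNormal (q.out⁻¹ : F) r) := fun r =>
    MonoidHom.finset_prod_apply _ _ _
  have hNc : ∀ (f : F) (r : π.ker), N (MulAut.conjNormal f r) = N r := by
    intro f r
    rw [hN, hN]
    refine Fintype.prod_equiv (MulAction.toPerm f⁻¹) _ _ fun q => ?_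
    rw [← hψ _ (out_mem' FU f q) (MulAut.conjNormal _ r), ← MulAut.mul_apply,
      ← MulAut.mul_apply, ← map_mul, ← map_mul]
    simp [mul_assoc]
  have hker : (covTheta π).ker ≤ N.ker := by
    have h1 : ⁅π.ker, (⊤ : Subgroup F)⁆ ≤ N.ker.map π.ker.subtype := by
      rw [commutator_le]
      intro r hr f _
      refine ⟨⟨r, hr⟩ * MulAut.conjNormal f (⟨r, hr⟩ : π.ker)⁻¹, ?_, ?_⟩
      · rw [SetLike.mem_coe, MonoidHom.mem_ker, map_mul, hNc, map_inv, mul_inv_cancel]
      · simp [commutatorElement_def, mul_assoc]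
    intro r hr
    have h2 : (r : F) ∈ ⁅π.ker, (⊤ : Subgroup F)⁆ :=
      (QuotientGroup.eq_one_iff _).1 (congrArg Subtype.val hr)
    obtain ⟨s, hs, e⟩ := h1 h2
    rwa [← Subtype.ext e]
  let N' : (covMap π).ker →* (covMap πU).ker :=
    MonoidHom.liftOfSurjective _ (covTheta_surjective π) ⟨N, hker⟩
  have hN' : ∀ r, N' (covTheta π r) = N r := fun r =>
    MonoidHom.liftOfRightInverse_comp_apply _ _ _ _ _
  -- the transfer
  let ϕ : FU →* Abelianization (Cov πU) := Abelianization.of.comp (QuotientGroup.mk' _)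
  let V : Cov π →* Abelianization (Cov πU) := QuotientGroup.lift _ (MonoidHom.transfer ϕ)
    ((commutator_mono le_top le_top).trans (Abelianization.commutator_subset_ker _))
  have hV : ∀ r : π.ker, V (covTheta π r) = Abelianization.of (N r).1 := by
    intro r
    change MonoidHom.transfer ϕ r = (Abelianization.of.comp (covMap πU).ker.subtype) (N r)
    rw [transfer_eq_prod_out', hN, map_prod]
    refine Finset.prod_congr rfl fun q _ => ?_
    have h1 : (r : F)⁻¹ • q = q := by
      rw [inv_smul_eq_iff, ← QuotientGroup.out_eq' q, MulAction.Quotient.smul_mk,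
        QuotientGroup.eq]
      exact hR (by
        have := (inferInstance : π.ker.Normal).conj_mem _ r.2 q.out⁻¹
        simpa [mul_assoc] using this)
    change ϕ _ = ϕ _
    congr 1
    apply Subtype.ext
    change q.out⁻¹ * (r * ((r : F)⁻¹ • q).out) = q.out⁻¹ * r * q.out⁻¹⁻¹
    rw [h1, inv_inv, mul_assoc]
  let res : Hopf π →* Hopf πU :=
    ((covMap πU).ker.subtype.comp (N'.comp (inclusion inf_le_left))).codRestrict _ fun a => by
      refine ⟨(N' _).2, ?_⟩
      obtain ⟨r, hr⟩ := covTheta_surjective π (inclusion inf_le_left a)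
      change ((N' (inclusion inf_le_left a)).1) ∈ commutator _
      rw [← hr, hN', ← Abelianization.ker_of, MonoidHom.mem_ker, ← hV, hr]
      exact Abelianization.commutator_subset_ker V a.2.2
  let c : Cov πU →* Cov π := QuotientGroup.lift _ ((QuotientGroup.mk' _).comp FU.subtype) (by
    rw [commutator_le]
    intro r hr f _
    rw [MonoidHom.mem_ker, MonoidHom.comp_apply, QuotientGroup.mk'_apply, QuotientGroup.eq_one_iff,
      map_commutatorElement]
    exact commutator_mem_commutator (congrArg Subtype.val hr) (mem_top _))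
  have hc : ∀ x ∈ (covMap πU).ker, c x ∈ (covMap π).ker := by
    intro x hx
    obtain ⟨r, rfl⟩ := QuotientGroup.mk_surjective x
    exact congrArg Subtype.val hx
  let c' : (covMap πU).ker →* (covMap π).ker :=
    (c.comp (covMap πU).ker.subtype).codRestrict _ fun x => hc x x.2
  let cor : Hopf πU →* Hopf π := (c.comp (Hopf πU).subtype).codRestrict _ fun x =>
    ⟨hc x x.2.1, by
      have : (commutator (Cov πU)).map c ≤ commutator (Cov π) := by
        rw [map_commutator_eq]; exact commutator_mono le_top le_top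
      exact this ⟨x, x.2.2, rfl⟩⟩
  refine ⟨res, cor, fun a => Subtype.ext ?_⟩
  obtain ⟨r, hr⟩ := covTheta_surjective π (inclusion inf_le_left a)
  change (c' (N' (inclusion inf_le_left a))).1 = ((inclusion inf_le_left a) ^ U.index).1
  congr 1
  rw [← hr, hN', hN, map_prod]
  have h1 : ∀ q : F ⧸ FU, c' (ψ (MulAut.conjNormal (q.out⁻¹ : F) r)) = covTheta π r :=
    fun q => covTheta_conj π _ r
  rw [Finset.prod_congr rfl fun q _ => h1 q, Finset.prod_const, Finset.card_univ,
    ← Nat.card_eq_fintype_card, ← hidx]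
  rfl

end

theorem exists_mult_res_cor {G : Type u} [Group G] (U : Subgroup G) {A : Type v} {B : Type w}
    [CommGroup A] [CommGroup B] (hA : HasSchurMultiplier G A) (hB : HasSchurMultiplier U B) :
    ∃ (res : A →* B) (cor : B →* A), ∀ a, cor (res a) = a ^ U.index := by
  have := mult_group_finite hA
  have hπ := taut_surjective (G := G)
  obtain ⟨res, cor, h⟩ := exists_hopf_res_cor (taut G) hπ U
  obtain ⟨e⟩ := mult_unique hA (hasSchurMultiplier_hopf _ hπ)
  have : (U.comap (taut G)).FiniteIndex :=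
    ⟨by rw [index_comap_of_surjective U hπ]; exact index_ne_zero_of_finite⟩
  obtain ⟨e'⟩ := mult_unique hB (hasSchurMultiplier_hopf ((taut G).subgroupComap U)
    (MonoidHom.subgroupComap_surjective_of_surjective _ _ hπ))
  refine ⟨e'.symm.toMonoidHom.comp (res.comp e.toMonoidHom),
    e.symm.toMonoidHom.comp (cor.comp e'.toMonoidHom), fun a => ?_⟩
  simp [h]

/-- a quotient of a finite abelian group embeds into it. -/
theorem exists_injective_of_surjective {B K : Type*} [CommGroup B] [Finite B] [CommGroup K]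
    (f : B →* K) (hf : Surjective f) : ∃ g : K →* B, Injective g := by
  have : Finite K := Finite.of_surjective f hf
  have : NeZero (Monoid.exponent B) := ⟨Monoid.exponent_ne_zero_of_finite⟩
  have : NeZero (Monoid.exponent K) := ⟨Monoid.exponent_ne_zero_of_finite⟩
  obtain ⟨e₁⟩ := CommGroup.monoidHom_mulEquiv_of_hasEnoughRootsOfUnity B ℂ
  obtain ⟨e₂⟩ := CommGroup.monoidHom_mulEquiv_of_hasEnoughRootsOfUnity K ℂ
  let d : (K →* ℂˣ) →* (B →* ℂˣ) := MonoidHom.compHom' f
  have hd : Injective d := fun a b h => MonoidHom.ext fun k => by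
    obtain ⟨x, rfl⟩ := hf k
    exact DFunLike.congr_fun h x
  exact ⟨e₁.toMonoidHom.comp (d.comp e₂.symm.toMonoidHom),
    e₁.injective.comp (hd.comp e₂.symm.injective)⟩

end Cfsg.Agent.H81
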