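import Cfsg.Agent.H81.OrderType
import Cfsg.Agent.H2.MinNormal
import Mathlib.GroupTheory.SpecificGroups.Quaternion

/-! Groups all of whose Sylow subgroups have a cyclic subgroup of index at most two. -/

set_option autoImplicit false

namespace Cfsg.Agent.H81

universe u v

/-- Every Sylow subgroup is covered by a cyclic group and one coset of it. -/
def NearCyclic (X : Type u) [Group X] : Prop :=
  ∀ (r : ℕ) [Fact r.Prime] (R : Sylow r X), ∃ x y : X, ∀ g ∈ (R : Subgroup X),
    g * y ∈ Subgroup.zpowers x ∨ g ∈ Subgroup.zpowers x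

theorem NearCyclic.of_surjective {X : Type u} {Y : Type v} [Group X] [Finite X] [Group Y]
    (h : NearCyclic X) (f : X →* Y) (hf : Function.Surjective f) : NearCyclic Y := by
  intro r _ R
  obtain ⟨S, rfl⟩ := Sylow.mapSurjective_surjective hf r R
  obtain ⟨x, y, hxy⟩ := h r S
  refine ⟨f x, f y, ?_⟩
  rintro _ ⟨g, hg, rfl⟩
  rw [← map_mul, ← MonoidHom.map_zpowers]
  exact (hxy g hg).imp (Subgroup.mem_map_of_mem f) (Subgroup.mem_map_of_mem f)

theorem exists_cover_of_cyclic_or_quaternion {P : Type u} [Group P]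
    (h : IsCyclic P ∨ ∃ n : ℕ, Nonempty (P ≃* QuaternionGroup (2 ^ n))) :
    ∃ x y : P, ∀ g : P, g * y ∈ Subgroup.zpowers x ∨ g ∈ Subgroup.zpowers x := by
  rcases h with h | ⟨n, ⟨e⟩⟩
  · obtain ⟨x, hx⟩ := h.exists_generator
    exact ⟨x, 1, fun g => Or.inr (hx g)⟩
  · have key : ∀ i : ZMod (2 * 2 ^ n), e.symm (QuaternionGroup.a i) ∈
        Subgroup.zpowers (e.symm (QuaternionGroup.a 1)) := fun i => by
      refine ⟨(i.val : ℕ), ?_⟩
      simp only [zpow_natCast]
      rw [← map_pow, QuaternionGroup.a_one_pow, ZMod.natCast_zmod_val]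
    refine ⟨e.symm (QuaternionGroup.a 1), e.symm (QuaternionGroup.xa 0), fun g => ?_⟩
    obtain ⟨q, rfl⟩ := e.symm.surjective g
    rcases q with i | i
    · exact Or.inr (key i)
    · left
      rw [← map_mul, QuaternionGroup.xa_mul_xa]
      exact key _

theorem nearCyclic_of_sylow {X : Type u} [Group X]
    (h : ∀ (r : ℕ) [Fact r.Prime] (R : Sylow r X),
      IsCyclic R ∨ ∃ n : ℕ, Nonempty (R ≃* QuaternionGroup (2 ^ n))) : NearCyclic X := by
  intro r _ R
  obtain ⟨x, y, hxy⟩ := exists_cover_of_cyclic_or_quaternion (h r R)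
  refine ⟨x, y, fun g hg => ?_⟩
  have key : ∀ z : (R : Subgroup X), z ∈ Subgroup.zpowers x → (z : X) ∈ Subgroup.zpowers (x : X) := by
    rintro z ⟨k, rfl⟩
    exact ⟨k, by simp⟩
  exact (hxy ⟨g, hg⟩).imp (key _) (key _)

/-- An elementary abelian subgroup of a group with nearly cyclic Sylow subgroups has prime order
or order four. -/
theorem NearCyclic.card_of_pow_eq_one {X : Type u} [Group X] [Finite X] (h : NearCyclic X)
    {r : ℕ} (hr : r.Prime) (M : Subgroup X) (hM : M ≠ ⊥) (hpow : ∀ x ∈ M, x ^ r = 1) :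
    Nat.card M = r ∨ (r = 2 ∧ Nat.card M = 4) := by
  have := Fact.mk hr
  have hp : IsPGroup r M := H2.isPGroup_of_forall_pow_eq_one hpow
  obtain ⟨R, hR⟩ := hp.exists_le_sylow
  obtain ⟨x, y, hxy⟩ := h r R
  have h1 : (Subgroup.zpowers x).relIndex M ∣ 2 := by
    rw [Subgroup.relIndex_dvd_two_iff]
    by_cases hall : ∀ m ∈ M, m ∈ Subgroup.zpowers x
    · exact ⟨1, M.one_mem, fun b hb => Or.inr (hall b hb)⟩
    push Not at hall
    obtain ⟨m, hm, hmx⟩ := hall
    refine ⟨m⁻¹, M.inv_mem hm, fun b hb => (hxy b (hR hb)).imp_left fun hb' => ?_⟩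
    have := (Subgroup.zpowers x).mul_mem hb'
      ((Subgroup.zpowers x).inv_mem ((hxy m (hR hm)).resolve_right hmx))
    simpa [mul_assoc] using this
  have h2 : Nat.card ((Subgroup.zpowers x).subgroupOf M) ∣ r := by
    have hc : IsCyclic ((Subgroup.zpowers x).subgroupOf M) := by
      refine isCyclic_of_injective (G' := Subgroup.zpowers x)
        (MonoidHom.codRestrict (M.subtype.comp ((Subgroup.zpowers x).subgroupOf M).subtype) _
          fun z => z.2) ?_
      intro a b hab
      have : ((a : M) : X) = ((b : M) : X) :=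
        congrArg (fun z : Subgroup.zpowers x => (z : X)) hab
      exact Subtype.ext (Subtype.ext this)
    rw [← IsCyclic.exponent_eq_card, Monoid.exponent_dvd_iff_forall_pow_eq_one]
    intro g
    exact Subtype.ext (Subtype.ext (hpow _ g.1.2))
  have h3 : Nat.card M ∣ 2 * r := by
    rw [← ((Subgroup.zpowers x).subgroupOf M).index_mul_card]
    exact Nat.mul_dvd_mul h1 h2
  obtain ⟨k, hk⟩ := IsPGroup.iff_card.1 hp
  have hk0 : k ≠ 0 := by
    rintro rfl
    exact hM (Subgroup.card_eq_one.1 (by simpa using hk))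
  rw [hk] at h3 ⊢
  obtain ⟨j, rfl⟩ := Nat.exists_eq_succ_of_ne_zero hk0
  rw [pow_succ] at h3 ⊢
  have h4 := Nat.dvd_of_mul_dvd_mul_right hr.pos h3
  rcases (Nat.dvd_prime Nat.prime_two).1 h4 with h5 | h5
  · left; rw [h5, one_mul]
  · right
    have := (Nat.Prime.pow_eq_iff Nat.prime_two).1 h5
    rw [h5, this.1]; exact ⟨rfl, rfl⟩

theorem isSolvable_of_piCard_eq_of_nearCyclic {G : Type u} {H : Type v} [Group G] [Finite G]
    [Group H] [Finite H] (hs : Group.IsSolvable G) (hG : NearCyclic G)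
    (hT : ∀ t : ℕ, piCard (t ≤ ·) G = piCard (t ≤ ·) H) : Group.IsSolvable H := by
  refine isSolvable_of_piCard_eq (fun X _ => Group.IsSolvable X ∧ NearCyclic X)
    (fun X _ _ N _ h => ⟨?_, h.2.of_surjective _ (QuotientGroup.mk'_surjective N)⟩)
    (fun X _ _ _ h => ?_) _ G H rfl ⟨hs, hG⟩ hT
  · exact ((Group.isSolvable_iff_subgroup_quotient N).1 h.1).2
  · have := h.1
    obtain ⟨M, p, hp, hMn, hM, -, -, hpow, -⟩ := H2.exists_minimal_normal_of_solvable (G := X)
    refine ⟨M, hMn, ?_⟩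
    rcases h.2.card_of_pow_eq_one hp M hM hpow with h' | h'
    · exact Or.inl (h' ▸ hp)
    · exact Or.inr h'.2

end Cfsg.Agent.H81
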