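import Cfsg.Agent.H81.SameOrder
import Cfsg.Agent.H36.Prime
import Cfsg.Agent.H2.MinNormal

set_option autoImplicit false

namespace Cfsg.Agent.H81

open Subgroup
open scoped IsMulCommutative

variable {G : Type*} [Group G]

theorem mul_pow_eq_norm_mul (V : Subgroup G) [V.Normal] [IsMulCommutative V] (v : V) (g : G)
    (n : ℕ) : ((v : G) * g) ^ n =
      ((∏ i ∈ Finset.range n, MulAut.conjNormal (g ^ i) v : V) : G) * g ^ n := by
  induction n with
  | zero => simp
  | succ n ih =>
    rw [pow_succ, ih, Finset.prod_range_succ, Subgroup.coe_mul, MulAut.conjNormal_apply]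
    group

theorem pow_mem_of_normalizer {H : Subgroup G} {u y : G} (hu : u ∈ H)
    (hy : y ∈ normalizer (H : Set G)) (n : ℕ) : (u * y) ^ n * (y ^ n)⁻¹ ∈ H := by
  induction n with
  | zero => simp
  | succ n ih =>
    have h1 : (u * y) ^ (n + 1) * (y ^ (n + 1))⁻¹ =
        ((u * y) ^ n * (y ^ n)⁻¹) * (y ^ n * u * (y ^ n)⁻¹) := by
      rw [pow_succ (u * y)]; group
    rw [h1]
    exact H.mul_mem ih (H72.conj_mem_of_mem_normalizer (pow_mem hy n) hu)

variable [Finite G]

/-- If all nontrivial elements have prime order, two elements in the same nontrivial coset of a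
subgroup they normalize have the same order. -/
theorem orderOf_mul_eq_of_prime_orders (h : ∀ g : G, g ≠ 1 → (orderOf g).Prime) {H : Subgroup G}
    {u y : G} (hu : u ∈ H) (hy : y ∈ normalizer (H : Set G)) (hyH : y ∉ H) :
    orderOf (u * y) = orderOf y := by
  have h1 : u * y ∉ H := fun e => hyH ((H.mul_mem_cancel_left hu).1 e)
  by_contra hne
  have h2 := pow_mem_of_normalizer hu hy (orderOf y)
  rw [pow_orderOf_eq_one, inv_one, mul_one] at h2
  refine h1 (H36.mem_of_pow_mem h2 ((Nat.coprime_primes (h y ?_) (h _ ?_)).2 (Ne.symm hne)))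
  · rintro rfl
    exact hyH H.one_mem
  · intro e
    exact h1 (e ▸ H.one_mem)

/-- In a group with all nontrivial elements of prime order and a nontrivial abelian normal
`q`-subgroup, each subgroup of prime order `p ≠ q` is self-normalizing. -/
theorem normalizer_le_of_prime_orders (h : ∀ g : G, g ≠ 1 → (orderOf g).Prime) (V : Subgroup G)
    [V.Normal] [IsMulCommutative V] (hV : V ≠ ⊥) {p q : ℕ} (hp : p.Prime) (hq : q.Prime)
    (hpq : p ≠ q) (hVq : ∀ v ∈ V, v ^ q = 1) {x : G} (hx : orderOf x = p) :
    normalizer (zpowers x : Set G) ≤ zpowers x := by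
  classical
  intro y hy
  by_contra hyx
  have := Fact.mk hq
  have := Fintype.ofFinite (zpowers x)
  have hn : ∀ g : G, g ∈ normalizer (V : Set G) := fun g => by rw [normalizer_eq_top]; trivial
  -- the norm of every cyclic subgroup vanishes
  have norm1 : ∀ (g : G) (v : V), g ≠ 1 →
      ∏ i ∈ Finset.range (orderOf g), MulAut.conjNormal (g ^ i) v = 1 := by
    intro g v hg
    have h1 := mul_pow_eq_norm_mul V v g (orderOf g)
    rw [pow_orderOf_eq_one, mul_one] at h1
    apply Subtype.ext
    rw [← h1]
    by_cases hgV : g ∈ V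
    · rw [orderOf_eq_prime (hVq g hgV) hg]
      exact hVq _ (V.mul_mem v.2 hgV)
    · rw [← orderOf_mul_eq_of_prime_orders h v.2 (hn g) hgV, pow_orderOf_eq_one]
      rfl
  have norm2 : ∀ w : V, ∏ u : zpowers x, MulAut.conjNormal (u : G) w = 1 := by
    intro w
    set N := ∏ u : zpowers x, MulAut.conjNormal (u : G) w with hN
    have h1 : MulAut.conjNormal x N = N := by
      rw [hN, map_prod]
      refine Fintype.prod_equiv (Equiv.mulLeft (⟨x, mem_zpowers x⟩ : zpowers x)) _ _ fun u => ?_
      rw [← MulAut.mul_apply, ← map_mul]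
      rfl
    have h2 : Commute x (N : G) := mul_inv_eq_iff_eq_mul.1 (congrArg Subtype.val h1)
    by_contra hN1
    have h3 : orderOf (N : G) = q := orderOf_eq_prime (hVq _ N.2) fun e => hN1 (Subtype.ext e)
    have h4 := h2.orderOf_mul_eq_mul_orderOf_of_coprime
      (by rw [hx, h3]; exact (Nat.coprime_primes hp hq).2 hpq)
    rw [hx, h3] at h4
    have h5 := h (x * N) (by
      intro e
      rw [e, orderOf_one] at h4
      exact hp.one_lt.ne' (Nat.eq_one_of_mul_eq_one_right h4.symm))
    rw [h4] at h5
    exact Nat.not_prime_mul hp.one_lt.ne' hq.one_lt.ne' h5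
  have hy1 : y ≠ 1 := by
    rintro rfl
    exact hyx (one_mem _)
  have hr := h y hy1
  have hord : ∀ u : zpowers x, orderOf ((u : G) * y) = orderOf y := fun u =>
    orderOf_mul_eq_of_prime_orders h u.2 hy hyx
  obtain ⟨v, hvV, hv1⟩ := V.bot_or_exists_ne_one.resolve_left hV
  have key : ∏ u : zpowers x, ∏ i ∈ Finset.range (orderOf y),
      MulAut.conjNormal (((u : G) * y) ^ i) (⟨v, hvV⟩ : V) = 1 := by
    refine Finset.prod_eq_one fun u _ => ?_
    rw [← hord u]
    refine norm1 _ _ fun e => ?_
    have := hord u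
    rw [e, orderOf_one] at this
    exact hr.one_lt.ne this
  rw [Finset.prod_comm, Finset.prod_eq_single 0] at key
  · simp only [pow_zero, map_one, MulAut.one_apply, Finset.prod_const, Finset.card_univ] at key
    rw [← Nat.card_eq_fintype_card, Nat.card_zpowers, hx] at key
    have h1 : v ^ p = 1 := congrArg Subtype.val key
    have h2 := orderOf_dvd_of_pow_eq_one h1
    rw [orderOf_eq_prime (hVq v hvV) hv1] at h2
    exact hpq ((Nat.prime_dvd_prime_iff_eq hq hp).1 h2).symm
  · intro i hi hi0
    let φ : zpowers x → zpowers x := fun u => ⟨_, pow_mem_of_normalizer u.2 hy i⟩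
    have hφ : Function.Injective φ := by
      intro u u' huu
      have h1 : ((u : G) * y) ^ i = ((u' : G) * y) ^ i :=
        mul_right_cancel (congrArg Subtype.val huu)
      have hco : i.Coprime (orderOf y) :=
        (Nat.coprime_of_lt_prime hi0 (Finset.mem_range.1 hi) hr).symm
      obtain ⟨m, -, hm⟩ := Nat.exists_mul_mod_eq_one_of_coprime hco hr.one_lt
      have h2 : ∀ z : G, orderOf z = orderOf y → (z ^ i) ^ m = z := fun z hz => by
        rw [← pow_mul, ← pow_mod_orderOf, hz, hm, pow_one]
      have h3 := h2 _ (hord u)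
      rw [h1, h2 _ (hord u')] at h3
      exact Subtype.ext (mul_right_cancel h3).symm
    rw [← norm2 (MulAut.conjNormal (y ^ i) ⟨v, hvV⟩)]
    refine Fintype.prod_bijective φ (Finite.injective_iff_bijective.1 hφ) _ _ fun u => ?_
    rw [← MulAut.mul_apply, ← map_mul]
    congr 2
    simp [φ]
  · intro h0
    exact absurd (Finset.mem_range.2 hr.pos) h0

end Cfsg.Agent.H81
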