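import Cfsg.Agent.H81.Twist

/-! The Schur multiplier of a direct product. -/

set_option autoImplicit false

namespace Cfsg.Agent.H81

open Function
open scoped commutatorElement

universe u v w

variable {Q₁ : Type u} {Q₂ : Type v} [Group Q₁] [Group Q₂]

theorem exists_stem_prod [Finite Q₁] [Finite Q₂] {Γ₁ Γ₂ : Type*} [Group Γ₁] [Group Γ₂]
    {σ₁ : Γ₁ →* Q₁} {σ₂ : Γ₂ →* Q₂} (h₁ : IsStemExtension σ₁) (h₂ : IsStemExtension σ₂) :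
    ∃ (β : Γ₁ × Γ₂ →* Γ₁ × Γ₂ →* AbTensor Q₁ Q₂),
      IsStemExtension ((σ₁.prodMap σ₂).comp (twFst β)) ∧
      Nonempty (((σ₁.prodMap σ₂).comp (twFst β)).ker ≃* σ₁.ker × σ₂.ker × AbTensor Q₁ Q₂) := by
  let β : Γ₁ × Γ₂ →* Γ₁ × Γ₂ →* AbTensor Q₁ Q₂ :=
    ((abTmul Q₁ Q₂).comp (σ₁.comp (MonoidHom.fst _ _))).compl₂ (σ₂.comp (MonoidHom.snd _ _))
  have hβ : ∀ x y, β x y = abTmul Q₁ Q₂ (σ₁ x.1) (σ₂ y.2) := fun _ _ => rfl
  have hker : ∀ x : Tw β, x ∈ ((σ₁.prodMap σ₂).comp (twFst β)).ker ↔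
      σ₁ x.h.1 = 1 ∧ σ₂ x.h.2 = 1 := fun x => by
    rw [MonoidHom.mem_ker]; exact Prod.ext_iff
  refine ⟨β, ⟨?_, ?_, ?_⟩, ⟨?_⟩⟩
  · rintro ⟨a, b⟩
    obtain ⟨a, rfl⟩ := h₁.1 a
    obtain ⟨b, rfl⟩ := h₂.1 b
    exact ⟨⟨(a, b), 1⟩, rfl⟩
  · intro x hx
    obtain ⟨hx1, hx2⟩ := (hker x).1 hx
    refine tw_mem_center β ?_ ?_
    · rw [Subgroup.mem_center_iff]
      intro y
      exact Prod.ext (Subgroup.mem_center_iff.1 (h₁.2.1 hx1) _)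
        (Subgroup.mem_center_iff.1 (h₂.2.1 hx2) _)
    · intro y
      simp [hβ, hx1, hx2]
  · intro x hx
    obtain ⟨hx1, hx2⟩ := (hker x).1 hx
    let j₁ := twLift β (MonoidHom.inl Γ₁ Γ₂) (fun a b => by simp [hβ])
    let j₂ := twLift β (MonoidHom.inr Γ₁ Γ₂) (fun a b => by simp [hβ])
    have e : x = j₁ x.h.1 * j₂ x.h.2 * twInr β x.t := by
      ext <;> simp [j₁, j₂, twLift, twInr, tw_mul_h, tw_mul_t, hβ, hx1, hx2]
    rw [e]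
    refine Subgroup.mul_mem _ (Subgroup.mul_mem _ (map_mem_commutator _ (h₁.2.2 hx1))
      (map_mem_commutator _ (h₂.2.2 hx2))) ?_
    refine abTensor_induction Q₁ Q₂ ((commutator (Tw β)).comap (twInr β)) (fun a b => ?_) x.t
    obtain ⟨a, rfl⟩ := h₁.1 a
    obtain ⟨b, rfl⟩ := h₂.1 b
    have := tw_commutator β (x := j₁ a) (y := j₂ b) (by simp [j₁, j₂, twLift])
    have h3 : β (j₁ a).h (j₂ b).h * (β (j₂ b).h (j₁ a).h)⁻¹ = abTmul Q₁ Q₂ (σ₁ a) (σ₂ b) := by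
      simp [j₁, j₂, twLift, hβ]
    rw [h3] at this
    rw [Subgroup.mem_comap, ← this]
    exact Subgroup.commutator_mem_commutator (Subgroup.mem_top _) (Subgroup.mem_top _)
  · exact
    { toFun := fun x => (⟨x.1.h.1, ((hker _).1 x.2).1⟩, ⟨x.1.h.2, ((hker _).1 x.2).2⟩, x.1.t)
      invFun := fun y => ⟨⟨(y.1.1, y.2.1.1), y.2.2⟩, (hker _).2 ⟨y.1.2, y.2.1.2⟩⟩
      left_inv := fun x => rfl
      right_inv := fun y => rfl
      map_mul' := fun x y => by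
        refine Prod.ext rfl (Prod.ext rfl ?_)
        change x.1.t * y.1.t * β x.1.h y.1.h = x.1.t * y.1.t
        rw [hβ, ((hker _).1 x.2).1]; simp }

theorem exists_surj_prod {A B : Type*} [CommGroup A] [CommGroup B]
    (hA : HasSchurMultiplier Q₁ A) (hB : HasSchurMultiplier Q₂ B)
    {Δ : Type*} [Group Δ] {τ : Δ →* Q₁ × Q₂} (hτ : IsStemExtension τ) :
    ∃ π : A × B × AbTensor Q₁ Q₂ →* τ.ker, Surjective π := by
  classical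
  let _ : CommGroup τ.ker := commGroupOfLeCenter hτ.2.1
  let Δ₁ := ((MonoidHom.snd Q₁ Q₂).comp τ).ker
  let Δ₂ := ((MonoidHom.fst Q₁ Q₂).comp τ).ker
  have m₁ : ∀ x, x ∈ Δ₁ ↔ (τ x).2 = 1 := fun _ => Iff.rfl
  have m₂ : ∀ x, x ∈ Δ₂ ↔ (τ x).1 = 1 := fun _ => Iff.rfl
  let τ₁ : Δ₁ →* Q₁ := ((MonoidHom.fst Q₁ Q₂).comp τ).comp Δ₁.subtype
  let τ₂ : Δ₂ →* Q₂ := ((MonoidHom.snd Q₁ Q₂).comp τ).comp Δ₂.subtype
  have s₁ : Surjective τ₁ := fun a => by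
    obtain ⟨x, hx⟩ := hτ.1 (a, 1)
    exact ⟨⟨x, (m₁ x).2 (by rw [hx])⟩, congrArg Prod.fst hx⟩
  have s₂ : Surjective τ₂ := fun a => by
    obtain ⟨x, hx⟩ := hτ.1 (1, a)
    exact ⟨⟨x, (m₂ x).2 (by rw [hx])⟩, congrArg Prod.snd hx⟩
  have k₁ : ∀ x ∈ τ₁.ker, x.1 ∈ τ.ker := fun x hx => Prod.ext hx x.2
  have k₂ : ∀ x ∈ τ₂.ker, x.1 ∈ τ.ker := fun x hx => Prod.ext x.2 hx
  have c₁ : τ₁.ker ≤ Subgroup.center Δ₁ := fun x hx => Subgroup.mem_center_iff.2 fun y =>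
    Subtype.ext (Subgroup.mem_center_iff.1 (hτ.2.1 (k₁ x hx)) _)
  have c₂ : τ₂.ker ≤ Subgroup.center Δ₂ := fun x hx => Subgroup.mem_center_iff.2 fun y =>
    Subtype.ext (Subgroup.mem_center_iff.1 (hτ.2.1 (k₂ x hx)) _)
  obtain ⟨f₁, hf₁⟩ := exists_mult_map hA s₁ c₁
  obtain ⟨f₂, hf₂⟩ := exists_mult_map hB s₂ c₂
  let g₁ : A →* τ.ker := (Δ₁.subtype.comp f₁).codRestrict _ (fun a => k₁ _ (hf₁.le ⟨a, rfl⟩).1)
  let g₂ : B →* τ.ker := (Δ₂.subtype.comp f₂).codRestrict _ (fun a => k₂ _ (hf₂.le ⟨a, rfl⟩).1)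
  let s : Q₁ × Q₂ → Δ := surjInv hτ.1
  have hs : ∀ q, τ (s q) = q := surjInv_eq hτ.1
  have hk : ∀ x y : Δ, (τ x).2 = 1 → (τ y).1 = 1 → ⁅x, y⁆ ∈ τ.ker := fun x y hx hy => by
    rw [MonoidHom.mem_ker, map_commutatorElement, commutatorElement_eq_one_iff_mul_comm]
    exact Prod.ext (by simp [hy]) (by simp [hx])
  have hk' : ∀ a b, ⁅s (a, 1), s (1, b)⁆ ∈ τ.ker := fun a b => hk _ _ (by rw [hs]) (by rw [hs])
  let c : Q₁ →* Q₂ →* τ.ker := MonoidHom.mk'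
    (fun a => MonoidHom.mk' (fun b => ⟨⁅s (a, 1), s (1, b)⁆, hk' a b⟩) (fun b b' => by
      apply Subtype.ext
      change ⁅s (a, 1), s (1, b * b')⁆ = ⁅s (a, 1), s (1, b)⁆ * ⁅s (a, 1), s (1, b')⁆
      rw [commutatorElement_eq_of_map_eq hτ.2.1 (x' := s (a, 1)) (y' := s (1, b) * s (1, b')) rfl
        (by simp [hs]), commutatorElement_mul_right_eq_mul_conj,
        mul_assoc _ (s (1, b)), Subgroup.mem_center_iff.1 (hτ.2.1 (hk' a b')) (s (1, b))]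
      group))
    (fun a a' => by
      ext b
      change ⁅s (a * a', 1), s (1, b)⁆ = ⁅s (a, 1), s (1, b)⁆ * ⁅s (a', 1), s (1, b)⁆
      rw [commutatorElement_eq_of_map_eq hτ.2.1 (x' := s (a, 1) * s (a', 1)) (y' := s (1, b))
        (by simp [hs]) rfl, commutatorElement_mul_left_eq_conj_mul,
        Subgroup.mem_center_iff.1 (hτ.2.1 (hk' a' b)) (s (a, 1)), mul_inv_cancel_right,
        Subgroup.mem_center_iff.1 (hτ.2.1 (hk' a' b))])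
  obtain ⟨g₃, hg₃⟩ := exists_abTensor_lift Q₁ Q₂ c
  let T : Subgroup Δ := (τ.ker.subtype.comp g₃).range
  have hT : T ≤ τ.ker := by rintro _ ⟨t, rfl⟩; exact (g₃ t).2
  have : T.Normal := normal_of_le_center (hT.trans hτ.2.1)
  let D : Subgroup Δ := (⁅Δ₁, Δ₁⁆ ⊔ ⁅Δ₂, Δ₂⁆) ⊔ T
  have hD : commutator Δ ≤ D := by
    have hdec : ∀ x : Δ, ∃ x₁ ∈ Δ₁, ∃ x₂ ∈ Δ₂, x = x₁ * x₂ := fun x =>
      ⟨s ((τ x).1, 1), (m₁ _).2 (by rw [hs]), (s ((τ x).1, 1))⁻¹ * x, (m₂ _).2 (by simp [hs]),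
        by simp⟩
    have hc : ∀ x y : Δ, ⁅x, y⁆ ∈ D ↔ Commute (QuotientGroup.mk' D x) (QuotientGroup.mk' D y) :=
      fun x y => by
        rw [← commutatorElement_eq_one_iff_commute, ← map_commutatorElement, ← MonoidHom.mem_ker,
          QuotientGroup.ker_mk']
    have h11 : ∀ x ∈ Δ₁, ∀ y ∈ Δ₁, Commute (QuotientGroup.mk' D x) (QuotientGroup.mk' D y) :=
      fun x hx y hy => (hc x y).1 (Subgroup.mem_sup_left (Subgroup.mem_sup_left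
        (Subgroup.commutator_mem_commutator hx hy)))
    have h22 : ∀ x ∈ Δ₂, ∀ y ∈ Δ₂, Commute (QuotientGroup.mk' D x) (QuotientGroup.mk' D y) :=
      fun x hx y hy => (hc x y).1 (Subgroup.mem_sup_left (Subgroup.mem_sup_right
        (Subgroup.commutator_mem_commutator hx hy)))
    have h12 : ∀ x ∈ Δ₁, ∀ y ∈ Δ₂, Commute (QuotientGroup.mk' D x) (QuotientGroup.mk' D y) :=
      fun x hx y hy => (hc x y).1 (Subgroup.mem_sup_right ⟨abTmul Q₁ Q₂ (τ x).1 (τ y).2, by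
        change (g₃ _).1 = _
        rw [hg₃]
        exact commutatorElement_eq_of_map_eq hτ.2.1
          (by rw [hs]; exact Prod.ext rfl ((m₁ x).1 hx).symm)
          (by rw [hs]; exact Prod.ext ((m₂ y).1 hy).symm rfl)⟩)
    rw [commutator_def, Subgroup.commutator_le]
    intro x _ y _
    obtain ⟨x₁, hx₁, x₂, hx₂, rfl⟩ := hdec x
    obtain ⟨y₁, hy₁, y₂, hy₂, rfl⟩ := hdec y
    rw [hc, map_mul, map_mul]
    exact ((h11 _ hx₁ _ hy₁).mul_right (h12 _ hx₁ _ hy₂)).mul_left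
      ((h12 _ hy₁ _ hx₂).symm.mul_right (h22 _ hx₂ _ hy₂))
  refine ⟨g₁.coprod (g₂.coprod g₃), fun k => ?_⟩
  obtain ⟨x, hx, t, ⟨t', rfl⟩, hk1⟩ := Subgroup.mem_sup_of_normal_right.1 (hD (hτ.2.2 k.2))
  obtain ⟨x₁, hx₁, x₂, hx₂, rfl⟩ := Subgroup.mem_sup_of_normal_right.1 hx
  rw [← Subgroup.map_subtype_commutator] at hx₁ hx₂
  obtain ⟨x₁, hx₁, rfl⟩ := hx₁
  obtain ⟨x₂, hx₂, rfl⟩ := hx₂
  have h1 : τ x₁.1 * τ x₂.1 = 1 := by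
    have h2 := congrArg τ hk1
    rw [map_mul, map_mul, MonoidHom.mem_ker.1 k.2, MonoidHom.mem_ker.1 (hT ⟨t', rfl⟩),
      mul_one] at h2
    exact h2
  have h2 : x₁ ∈ τ₁.ker := by
    have := congrArg Prod.fst h1
    rw [Prod.fst_mul, (m₂ _).1 x₂.2, mul_one] at this
    exact this
  have h3 : x₂ ∈ τ₂.ker := by
    have := congrArg Prod.snd h1
    rw [Prod.snd_mul, (m₁ _).1 x₁.2, one_mul] at this
    exact this
  obtain ⟨a, ha⟩ := hf₁.ge ⟨h2, hx₁⟩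
  obtain ⟨b, hb⟩ := hf₂.ge ⟨h3, hx₂⟩
  refine ⟨(a, b, t'), Subtype.ext ?_⟩
  rw [← hk1, ← ha, ← hb, mul_assoc]
  rfl

theorem hasSchurMultiplier_prod {A B : Type*} [CommGroup A] [CommGroup B]
    (hA : HasSchurMultiplier Q₁ A) (hB : HasSchurMultiplier Q₂ B) :
    HasSchurMultiplier (Q₁ × Q₂) (A × B × AbTensor Q₁ Q₂) := by
  have := mult_group_finite hA
  have := mult_group_finite hB
  obtain ⟨Γ₁, _, _, σ₁, h₁, ⟨e₁⟩⟩ := hA.1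
  obtain ⟨Γ₂, _, _, σ₂, h₂, ⟨e₂⟩⟩ := hB.1
  obtain ⟨β, hβ, ⟨e⟩⟩ := exists_stem_prod h₁ h₂
  exact hasSchurMultiplier_of _ hβ (e.trans (e₁.prodCongr (e₂.prodCongr (MulEquiv.refl _))))
    fun Δ _ _ τ hτ => exists_surj_prod hA hB hτ

end Cfsg.Agent.H81
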